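/-
Piece oU1t2 of helper83's farm S2151 (by helper92).
-/
import Mathlib
import Cfsg.Agent.Lib.Helper83.MinSU.DefsO

set_option autoImplicit false

namespace Cfsg.Agent.Lib.Helper92.MinSU.O

open Matrix Cfsg.Agent.Lib.Helper13 Cfsg.Agent.Lib.Helper5 Cfsg.Agent.Lib.Helper57.RootSU
  Cfsg.Agent.Lib.Helper83.MinSU

variable {F : Type*} [Field F] [Fintype F] {q m n : ℕ}

lemma two_eq_zero4 (hF : Fintype.card F = 2 ^ 2) : (2 : F) = 0 := by
  have h := FiniteField.pow_card (-1 : F)
  rw [hF] at h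
  norm_num at h
  linear_combination h

lemma exists_omega (hF : Fintype.card F = 2 ^ 2) : ∃ om : F, om ≠ 0 ∧ om ≠ 1 ∧ om ^ 2 + om + 1 = 0 := by
  classical
  have hc : 2 < Fintype.card F := by rw [hF]; norm_num
  obtain ⟨om, h0, h1⟩ : ∃ om : F, om ≠ 0 ∧ om ≠ 1 := by
    by_contra hcon
    push Not at hcon
    have : Fintype.card F ≤ ({0, 1} : Finset F).card := by
      rw [← Finset.card_univ]
      apply Finset.card_le_card
      intro x _
      by_cases hx : x = 0
      · simp [hx]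
      · simp [hcon x hx]
    have h2 : ({0, 1} : Finset F).card ≤ 2 := Finset.card_le_two
    omega
  refine ⟨om, h0, h1, ?_⟩
  have h := FiniteField.pow_card_sub_one_eq_one om h0
  rw [hF] at h
  norm_num at h
  have h3 : (om - 1) * (om ^ 2 + om + 1) = 0 := by linear_combination h
  rcases mul_eq_zero.mp h3 with h4 | h4
  · exact absurd (sub_eq_zero.mp h4) h1
  · exact h4

lemma skew_cases (hF : Fintype.card F = 2 ^ 2) {c : F} (hc : c + c ^ 2 = 0) : c = 0 ∨ c = 1 := by
  have h2 := two_eq_zero4 hF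
  have h : c * (c - 1) = 0 := by linear_combination hc - c * h2
  rcases mul_eq_zero.mp h with h | h
  · exact Or.inl h
  · exact Or.inr (sub_eq_zero.mp h)

lemma one_skew (hF : Fintype.card F = 2 ^ 2) : (1 : F) + 1 ^ 2 = 0 := by
  linear_combination two_eq_zero4 hF

/-- the product identity on a totally isotropic line, `q = 2` -/
theorem ut_five (hF : Fintype.card F = 2 ^ 2) (z x : Fin n → F) (om : F)
    (hom : om ^ 2 + om + 1 = 0)
    (hz : Cfsg.hermForm n F 2 z z = 0) (hzx : Cfsg.hermForm n F 2 z x = 0)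
    (hx : Cfsg.hermForm n F 2 x x = 0) :
    ut hF z 1 = ut hF x 1 * ut hF (z + x) 1 * ut hF (z + om • x) 1 * ut hF (z + om ^ 2 • x) 1 := by
  have h2 := two_eq_zero4 hF
  have hs := one_skew hF
  have hxz : Cfsg.hermForm n F 2 x z = 0 := hermForm_eq_zero_comm hF hzx
  have i1 : Cfsg.hermForm n F 2 (z + x) (z + x) = 0 := by
    simp only [hermForm_add_left, hermForm_add_right hF, hz, hx, hzx, hxz, add_zero]
  have i2 : ∀ mu : F, Cfsg.hermForm n F 2 (z + mu • x) (z + mu • x) = 0 := by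
    intro mu
    simp only [hermForm_add_left, hermForm_add_right hF, hermForm_smul_left, hermForm_smul_right,
      hz, hx, hzx, hxz, add_zero, mul_zero]
  apply SU_ext_mulVec
  intro y
  rw [SU_mul_mulVec, SU_mul_mulVec, SU_mul_mulVec, ut_mulVec hF hz hs, ut_mulVec hF (i2 _) hs,
    ut_mulVec hF (i2 _) hs, ut_mulVec hF i1 hs, ut_mulVec hF hx hs]
  simp only [hermForm_add_left, hermForm_add_right hF, hermForm_smul_left, hermForm_smul_right,
    hz, hx, hzx, hxz]
  ext i
  simp only [Pi.add_apply, Pi.smul_apply, smul_eq_mul]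
  generalize Cfsg.hermForm n F 2 y z = A
  generalize Cfsg.hermForm n F 2 y x = B
  linear_combination (-(A * z i) - 2 * B * x i) * h2
    - ((om ^ 2 - om + 1) * B * z i + A * x i + ((om - 1) * (om ^ 3 + 1) + (om - 1)) * B * x i) * hom

/-- [oU1t2] the five points of a totally isotropic line, `q = 2` -/
theorem rs_five (hF : Fintype.card F = 2 ^ 2) (K : Subgroup (Cfsg.SU n F 2)) (z x : Fin n → F)
    (hz : Cfsg.hermForm n F 2 z z = 0) (hzx : Cfsg.hermForm n F 2 z x = 0)
    (hx : x ∈ RS hF K) (h : ∀ mu : F, mu ≠ 0 → z + mu • x ∈ RS hF K) :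
    z ∈ RS hF K := by
  refine ⟨hz, fun c hc => ?_⟩
  rcases skew_cases hF hc with rfl | rfl
  · rw [ut_zero hF hz]; exact K.one_mem
  obtain ⟨om, h0, h1, hom⟩ := exists_omega hF
  rw [ut_five hF z x om hom hz hzx hx.1]
  have e1 := (h 1 one_ne_zero).2 1 hc
  rw [one_smul] at e1
  exact K.mul_mem (K.mul_mem (K.mul_mem (hx.2 1 hc) e1) ((h om h0).2 1 hc))
    ((h (om ^ 2) (pow_ne_zero 2 h0)).2 1 hc)

end Cfsg.Agent.Lib.Helper92.MinSU.O
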