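/-
Piece oZT1 of helper83's farm S2151 (by helper92).
-/
import Mathlib
import Cfsg.Agent.Lib.Helper83.MinSU.DefsO
import Cfsg.Agent.Lib.Helper92.MinSU.oU1t2

set_option autoImplicit false

namespace Cfsg.Agent.Lib.Helper92.MinSU.O

open Matrix Cfsg.Agent.Lib.Helper13 Cfsg.Agent.Lib.Helper5 Cfsg.Agent.Lib.Helper57.RootSU
  Cfsg.Agent.Lib.Helper83.MinSU

variable {F : Type*} [Field F] [Fintype F] {q m n : ℕ}

section gen

variable {P : Type*} [Group P] (L : ULoc m F q P)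

lemma rho_mul_ex (hF : Fintype.card F = q ^ 2) {w w' : Fin m → F} {a a' : F} (h : Val q w a)
    (h' : Val q w' a') : ∃ c, Val q (w + w') c ∧ L.rho w a * L.rho w' a' = L.rho (w + w') c :=
  ⟨_, h.add hF h', L.rho_mul _ _ _ _ h h'⟩

lemma rho_inv_ex (hF : Fintype.card F = q ^ 2) {w : Fin m → F} {a : F} (h : Val q w a) :
    ∃ c, Val q (-w) c ∧ (L.rho w a)⁻¹ = L.rho (-w) c :=
  ⟨_, h.inv hF, L.rho_inv hF h⟩

lemma exists_val (hF : Fintype.card F = q ^ 2) (u : Fin m → F) : ∃ a : F, Val q u a := by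
  obtain ⟨a, ha⟩ := exists_tr hF (-(Cfsg.hermForm m F q u u))
    (by rw [neg_pow_q hF, hermForm_self_pow hF])
  exact ⟨a, by unfold Val; rw [ha]; ring⟩

/-- conjugating `rho w c * eps l` by `rho u a` -/
lemma conj_ex (hF : Fintype.card F = q ^ 2) {u w : Fin m → F} {a c : F} (l : Cfsg.SU m F q)
    (hu : Val q u a) (hw : Val q w c) :
    ∃ c', Val q (-u + w + l.1.1 *ᵥ u) c' ∧
      (L.rho u a)⁻¹ * (L.rho w c * L.eps l) * L.rho u a
        = L.rho (-u + w + l.1.1 *ᵥ u) c' * L.eps l := by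
  obtain ⟨a1, h1, e1⟩ := rho_inv_ex L hF hu
  obtain ⟨a2, h2, e2⟩ := rho_mul_ex L hF h1 hw
  obtain ⟨a3, h3, e3⟩ := rho_mul_ex L hF h2 (hu.map l)
  refine ⟨a3, h3, ?_⟩
  calc (L.rho u a)⁻¹ * (L.rho w c * L.eps l) * L.rho u a
      = L.rho (-u) a1 * L.rho w c * (L.eps l * L.rho u a) := by rw [e1]; simp only [mul_assoc]
    _ = L.rho (-u) a1 * L.rho w c * (L.rho (l.1.1 *ᵥ u) a * L.eps l) := by
        rw [L.eps_rho _ _ _ hu]
    _ = (L.rho (-u) a1 * L.rho w c * L.rho (l.1.1 *ᵥ u) a) * L.eps l := by simp only [mul_assoc]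
    _ = _ := by rw [e2, e3]

lemma eps_rho_zero {c : F} (l : Cfsg.SU m F q) (hc : Val q (0 : Fin m → F) c) :
    L.eps l * L.rho 0 c = L.rho 0 c * L.eps l := by
  rw [L.eps_rho _ _ _ hc, mulVec_zero]

end gen

section loc2

variable {P : Type*} [Group P] (L : ULoc m F 2 P) (S : Subgroup P)

lemma val_zero_one (hF : Fintype.card F = 2 ^ 2) : Val 2 (0 : Fin m → F) (1 : F) :=
  Val.of_skew hF (one_skew hF)

lemma val_zero_cases (hF : Fintype.card F = 2 ^ 2) {c : F} (hc : Val 2 (0 : Fin m → F) c) :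
    c = 0 ∨ c = 1 := by
  unfold Val at hc
  rw [hermForm_zero_left, add_zero] at hc
  exact skew_cases hF hc

lemma rho_one_sq (hF : Fintype.card F = 2 ^ 2) : L.rho 0 1 * L.rho 0 1 = 1 := by
  rw [L.rho_mul _ _ _ _ (val_zero_one hF) (val_zero_one hF), hermForm_zero_left, add_zero, sub_zero]
  have : (1 : F) + 1 = 0 := by linear_combination two_eq_zero4 hF
  rw [this, L.rho_zero hF]

/-- [oZT1] -/
theorem ztrick [Finite P] (hF : Fintype.card F = 2 ^ 2) (hA : L.rho 0 1 ∉ S) (hB : L.Bb hF S = ⊥)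
    (hS1 : L.S1 hF S = ⊤) (z : Cfsg.SU m F 2) (hz3 : z ^ 3 = 1)
    (hfix : ∀ w : Fin m → F, z.1.1 *ᵥ w = w → w = 0) :
    ∃ x : P, L.lam x = 1 ∧ ∀ l : Cfsg.SU m F 2, l * z = z * l →
      (x * L.eps l * x⁻¹ ∈ S ∨ x * (L.rho 0 1 * L.eps l) * x⁻¹ ∈ S) := by
  have hz1 : z ∈ L.S1 hF S := by rw [hS1]; trivial
  obtain ⟨y, b, hyb, hs⟩ := hz1
  obtain ⟨u, hu⟩ : ∃ u : Fin m → F, u - z.1.1 *ᵥ u = y := by
    let f : (Fin m → F) →ₗ[F] (Fin m → F) := LinearMap.id - z.1.1.mulVecLin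
    have hinj : Function.Injective f := by
      rw [← LinearMap.ker_eq_bot, LinearMap.ker_eq_bot']
      intro w hw
      apply hfix
      have h1 : w - z.1.1 *ᵥ w = 0 := hw
      exact (sub_eq_zero.mp h1).symm
    obtain ⟨u, hu⟩ := (LinearMap.injective_iff_surjective.mp hinj) y
    exact ⟨u, hu⟩
  obtain ⟨a, ha⟩ := exists_val hF u
  obtain ⟨x, hx⟩ : ∃ x, x = L.rho u a := ⟨_, rfl⟩
  let S' : Subgroup P := S.comap (MulAut.conj x).toMonoidHom
  have memS' : ∀ g, g ∈ S' ↔ x * g * x⁻¹ ∈ S := fun g => Iff.rfl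
  have conjS' : ∀ g ∈ S, x⁻¹ * g * x ∈ S' := by
    intro g hg
    rw [memS']
    have e : x * (x⁻¹ * g * x) * x⁻¹ = g := by group
    rwa [e]
  have hB' : ∀ v d, Val 2 v d → L.rho v d ∈ S' → v = 0 := by
    intro v d hvd hmem
    rw [memS', hx] at hmem
    obtain ⟨a1, h1, e1⟩ := rho_inv_ex L hF ha
    obtain ⟨a2, h2, e2⟩ := rho_mul_ex L hF ha hvd
    obtain ⟨a3, h3, e3⟩ := rho_mul_ex L hF h2 h1
    rw [e1, e2, e3] at hmem
    have h4 : u + v + -u ∈ L.Bb hF S := ⟨a3, h3, hmem⟩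
    rw [hB, AddSubgroup.mem_bot] at h4
    have h5 : u + v + -u = v := by abel
    rwa [h5] at h4
  have hA' : L.rho 0 1 ∉ S' := by
    rw [memS', L.conj_center x 1 (one_skew hF), hx, L.lam_rho _ _ ha]
    simpa using hA
  obtain ⟨b', hb', eb⟩ := conj_ex L hF z ha hyb
  have e0 : -u + y + z.1.1 *ᵥ u = 0 := by rw [← hu]; abel
  rw [e0, ← hx] at eb
  rw [e0] at hb'
  have hs' : L.rho 0 b' * L.eps z ∈ S' := by rw [← eb]; exact conjS' _ hs
  have hez : L.eps z ∈ S' := by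
    rcases val_zero_cases hF hb' with rfl | rfl
    · rwa [L.rho_zero hF, one_mul] at hs'
    · exfalso
      have h3 := S'.pow_mem hs' 3
      have hc : Commute (L.rho 0 1) (L.eps z) := (eps_rho_zero L z hb').symm
      rw [hc.mul_pow, ← map_pow, hz3, map_one, mul_one, pow_succ, pow_two, rho_one_sq L hF,
        one_mul] at h3
      exact hA' h3
  refine ⟨x, by rw [hx]; exact L.lam_rho _ _ ha, fun l hl => ?_⟩
  have hl1 : l ∈ L.S1 hF S := by rw [hS1]; trivial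
  obtain ⟨w, c, hwc, hg⟩ := hl1
  obtain ⟨c', hc', ec⟩ := conj_ex L hF l ha hwc
  rw [← hx] at ec
  generalize -u + w + l.1.1 *ᵥ u = w' at hc' ec
  have hg' : L.rho w' c' * L.eps l ∈ S' := by rw [← ec]; exact conjS' _ hg
  have hcm : L.eps z * (L.rho w' c' * L.eps l) * (L.eps z)⁻¹ * (L.rho w' c' * L.eps l)⁻¹ ∈ S' :=
    S'.mul_mem (S'.mul_mem (S'.mul_mem hez hg') (S'.inv_mem hez)) (S'.inv_mem hg')
  have ecm : L.eps z * (L.rho w' c' * L.eps l) * (L.eps z)⁻¹ * (L.rho w' c' * L.eps l)⁻¹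
      = L.rho (z.1.1 *ᵥ w') c' * (L.rho w' c')⁻¹ := by
    have e1 : L.eps z * L.eps l * (L.eps z)⁻¹ * (L.eps l)⁻¹ = 1 := by
      rw [← map_mul, ← hl, map_mul]; group
    calc L.eps z * (L.rho w' c' * L.eps l) * (L.eps z)⁻¹ * (L.rho w' c' * L.eps l)⁻¹
        = (L.eps z * L.rho w' c') * (L.eps l * (L.eps z)⁻¹ * (L.eps l)⁻¹) * (L.rho w' c')⁻¹ := by
          group
      _ = L.rho (z.1.1 *ᵥ w') c' * (L.eps z * L.eps l * (L.eps z)⁻¹ * (L.eps l)⁻¹)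
            * (L.rho w' c')⁻¹ := by rw [L.eps_rho _ _ _ hc']; group
      _ = _ := by rw [e1, mul_one]
  rw [ecm] at hcm
  obtain ⟨a1, h1, e1⟩ := rho_inv_ex L hF hc'
  obtain ⟨a2, h2, e2⟩ := rho_mul_ex L hF (hc'.map z) h1
  rw [e1, e2] at hcm
  have h3 := hB' _ _ h2 hcm
  have h4 : w' = 0 := hfix w' (by rw [← sub_eq_zero, sub_eq_add_neg]; exact h3)
  subst h4
  rcases val_zero_cases hF hc' with rfl | rfl
  · left
    rw [L.rho_zero hF, one_mul] at hg'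
    exact hg'
  · right
    exact hg'

end loc2

end Cfsg.Agent.Lib.Helper92.MinSU.O
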