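/-
Piece oZT3 of helper83's farm S2151 (by helper92).
-/
import Mathlib
import Cfsg.Agent.Lib.Helper83.MinSU.DefsO
import Cfsg.Agent.Lib.Helper81.MinSU.G1
import Cfsg.Agent.Lib.Helper92.MinSU.oZT1

set_option autoImplicit false

namespace Cfsg.Agent.Lib.Helper92.MinSU.O

open Matrix Cfsg.Agent.Lib.Helper13 Cfsg.Agent.Lib.Helper5 Cfsg.Agent.Lib.Helper57.RootSU
  Cfsg.Agent.Lib.Helper83.MinSU

variable {F : Type*} [Field F] [Fintype F] {q m n : ℕ}

/-- commutators of lifts by central elements -/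
lemma comm_lift {P : Type*} [Group P] (r1 r2 e1 e2 : P) (h11 : Commute r1 e1) (h12 : Commute r1 e2)
    (h21 : Commute r2 e1) (h22 : Commute r2 e2) (hr : Commute r1 r2) :
    (r1 * e1) * (r2 * e2) * (r1 * e1)⁻¹ * (r2 * e2)⁻¹ = e1 * e2 * e1⁻¹ * e2⁻¹ := by
  have ha : (r1 * e1) * (r2 * e2) = (r1 * r2) * (e1 * e2) := h21.symm.mul_mul_mul_comm r1 e2
  have hb : (r2 * e2) * (r1 * e1) = (r1 * r2) * (e2 * e1) := by
    rw [h12.symm.mul_mul_mul_comm r2 e1, hr.eq]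
  have hX : Commute (r1 * r2) (e1 * e2) := (h11.mul_right h12).mul_left (h21.mul_right h22)
  have hY : Commute (r1 * r2) (e2 * e1) := (h12.mul_right h11).mul_left (h22.mul_right h21)
  calc (r1 * e1) * (r2 * e2) * (r1 * e1)⁻¹ * (r2 * e2)⁻¹
      = ((r1 * e1) * (r2 * e2)) * ((r2 * e2) * (r1 * e1))⁻¹ := by group
    _ = (r1 * r2) * (e1 * e2) * ((r1 * r2) * (e2 * e1))⁻¹ := by rw [ha, hb]
    _ = (e1 * e2) * ((r1 * r2) * (e2 * e1)⁻¹) * (r1 * r2)⁻¹ := by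
        rw [hX.eq, _root_.mul_inv_rev]; simp only [mul_assoc]
    _ = (e1 * e2) * ((e2 * e1)⁻¹ * (r1 * r2)) * (r1 * r2)⁻¹ := by rw [hY.inv_right.eq]
    _ = e1 * e2 * e1⁻¹ * e2⁻¹ := by group

/-- a transvection of `SU_n(2)` with an anisotropic vector perpendicular to its centre is a
commutator -/
lemma ut_eq_comm (hF : Fintype.card F = 2 ^ 2) (w z0 : Fin n → F)
    (hw : Cfsg.hermForm n F 2 w w = 0) (hzw : Cfsg.hermForm n F 2 z0 w = 0)
    (hz : Cfsg.hermForm n F 2 z0 z0 = 1) :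
    ∃ g1 g2 : Cfsg.SU n F 2, g1 * g2 * g1⁻¹ * g2⁻¹ = ut hF w 1 := by
  obtain ⟨om, h0, h1, hom⟩ := exists_omega hF
  have h2 := two_eq_zero4 hF
  have hwz : Cfsg.hermForm n F 2 w z0 = 0 := hermForm_eq_zero_comm hF hzw
  have a1 : om + om ^ 2 + Cfsg.hermForm n F 2 z0 z0 = 0 := by rw [hz]; linear_combination hom
  have b2 : Cfsg.hermForm n F 2 (om • z0) w = 0 := by rw [hermForm_smul_left, hzw, mul_zero]
  have a2 : om + om ^ 2 + Cfsg.hermForm n F 2 (om • z0) (om • z0) = 0 := by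
    rw [hermForm_smul_left, hermForm_smul_right, hz]
    linear_combination (om - 1 + 1) * hom
  refine ⟨eSU hF w z0 om hw hzw a1, eSU hF w (om • z0) om hw b2 a2, ?_⟩
  have key : eSU hF w z0 om hw hzw a1 * eSU hF w (om • z0) om hw b2 a2
      = ut hF w 1 * (eSU hF w (om • z0) om hw b2 a2 * eSU hF w z0 om hw hzw a1) := by
    apply SU_ext_mulVec
    intro x
    rw [SU_mul_mulVec, SU_mul_mulVec, SU_mul_mulVec, ut_mulVec hF hw (one_skew hF), eSU_mulVec,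
      eSU_mulVec, eSU_mulVec, eSU_mulVec]
    simp only [hermForm_add_left, hermForm_sub_left, hermForm_smul_left, hermForm_smul_right,
      hw, hzw, hwz, hz]
    ext i
    simp only [Pi.add_apply, Pi.sub_apply, Pi.smul_apply, smul_eq_mul]
    generalize Cfsg.hermForm n F 2 x w = A
    generalize Cfsg.hermForm n F 2 x z0 = B
    linear_combination (A * w i) * hom - ((om + 1) * A * w i) * h2
  rw [key]
  group

section loc2

variable {P : Type*} [Group P] (S : Subgroup P)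

lemma exists_lift (hF : Fintype.card F = 2 ^ 2) (L : ULoc m F 2 P) (l : Cfsg.SU m F 2)
    (h : L.eps l ∈ S ∨ L.rho 0 1 * L.eps l ∈ S) :
    ∃ r : P, r * L.eps l ∈ S ∧ (∀ l', Commute r (L.eps l')) ∧ (r = 1 ∨ r = L.rho 0 1) := by
  rcases h with h | h
  · exact ⟨1, by rwa [one_mul], fun l' => Commute.one_left _, Or.inl rfl⟩
  · exact ⟨L.rho 0 1, h, fun l' => (eps_rho_zero L l' (val_zero_one hF)).symm, Or.inr rfl⟩

/-- commutators lift -/
lemma eps_comm_mem (hF : Fintype.card F = 2 ^ 2) (L : ULoc m F 2 P) (g1 g2 : Cfsg.SU m F 2)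
    (h1 : L.eps g1 ∈ S ∨ L.rho 0 1 * L.eps g1 ∈ S)
    (h2 : L.eps g2 ∈ S ∨ L.rho 0 1 * L.eps g2 ∈ S) :
    L.eps (g1 * g2 * g1⁻¹ * g2⁻¹) ∈ S := by
  obtain ⟨r1, m1, c1, d1⟩ := exists_lift S hF L g1 h1
  obtain ⟨r2, m2, c2, d2⟩ := exists_lift S hF L g2 h2
  have hr : Commute r1 r2 := by
    rcases d1 with rfl | rfl
    · exact Commute.one_left _
    · rcases d2 with rfl | rfl
      · exact Commute.one_right _
      · exact Commute.refl _
  have e := comm_lift r1 r2 (L.eps g1) (L.eps g2) (c1 _) (c1 _) (c2 _) (c2 _) hr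
  rw [map_mul, map_mul, map_mul, map_inv, map_inv, ← e]
  exact S.mul_mem (S.mul_mem (S.mul_mem m1 m2) (S.inv_mem m1)) (S.inv_mem m2)

/-- [oZT3] -/
theorem kill_b3 [Finite P] (hF : Fintype.card F = 2 ^ 2) (L : ULoc 3 F 2 P) (hA : L.rho 0 1 ∉ S)
    (h : ∀ l : Cfsg.SU 3 F 2, (L.eps l ∈ S ∨ L.rho 0 1 * L.eps l ∈ S)) :
    ∀ w : Fin 3 → F, Cfsg.hermForm 3 F 2 w w = 0 → L.eps (ut hF w 1) ∈ S := by
  intro w hw
  by_cases hw0 : w = 0
  · have e : ut hF w 1 = 1 := by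
      apply SU_ext_mulVec
      intro x
      rw [ut_mulVec hF hw (one_skew hF), SU_one_mulVec, hw0, smul_zero, add_zero]
    rw [e, map_one]; exact S.one_mem
  have h2 := two_eq_zero4 hF
  have hw1 : Cfsg.hermForm 3 F 2 (![1, 1, 0] : Fin 3 → F) ![1, 1, 0] = 0 := by
    simp [Cfsg.hermForm, Fin.sum_univ_three]
    linear_combination h2
  have hw10 : (![1, 1, 0] : Fin 3 → F) ≠ 0 := by
    intro h
    have := congrFun h 0
    simp at this
  obtain ⟨g, hg⟩ := Cfsg.Agent.Lib.Helper81.MinSU.exists_su_map hF (le_refl 3) _ w hw10 hw0 hw1 hw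
  have hz1 : Cfsg.hermForm 3 F 2 (g.1.1 *ᵥ (![0, 0, 1] : Fin 3 → F)) w = 0 := by
    rw [← hg, SU_preserves]
    simp [Cfsg.hermForm, Fin.sum_univ_three]
  have hz2 : Cfsg.hermForm 3 F 2 (g.1.1 *ᵥ (![0, 0, 1] : Fin 3 → F))
      (g.1.1 *ᵥ (![0, 0, 1] : Fin 3 → F)) = 1 := by
    rw [SU_preserves]
    simp [Cfsg.hermForm, Fin.sum_univ_three]
  obtain ⟨g1, g2, e⟩ := ut_eq_comm hF w _ hw hz1 hz2
  rw [← e]
  exact eps_comm_mem S hF L g1 g2 (h g1) (h g2)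

end loc2

end Cfsg.Agent.Lib.Helper92.MinSU.O
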