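/-
Piece oZT2 of helper83's farm S2151 (by helper92).
-/
import Mathlib
import Cfsg.Agent.Lib.Helper83.MinSU.DefsO
import Cfsg.Agent.Lib.Helper62.MinSU.Geo
import Cfsg.Agent.Lib.Helper92.MinSU.oZT1

set_option autoImplicit false

namespace Cfsg.Agent.Lib.Helper92.MinSU.O

open Matrix Cfsg.Agent.Lib.Helper13 Cfsg.Agent.Lib.Helper5 Cfsg.Agent.Lib.Helper57.RootSU
  Cfsg.Agent.Lib.Helper83.MinSU Cfsg.Agent.Lib.Helper62.MinSU

variable {F : Type*} [Field F] [Fintype F] {q m n : ℕ}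

/-- two transvections with non-perpendicular centres generate `S_3` (`q = 2`) -/
lemma ut_mul_cube (hF : Fintype.card F = 2 ^ 2) (u v : Fin n → F)
    (hu : Cfsg.hermForm n F 2 u u = 0) (hv : Cfsg.hermForm n F 2 v v = 0)
    (huv : Cfsg.hermForm n F 2 u v ≠ 0) : (ut hF u 1 * ut hF v 1) ^ 3 = 1 := by
  have h2 := two_eq_zero4 hF
  have hs := one_skew hF
  have hk : Cfsg.hermForm n F 2 u v * Cfsg.hermForm n F 2 v u = 1 := by
    rw [← hermForm_swap hF u v]
    have h3 := FiniteField.pow_card_sub_one_eq_one _ huv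
    rw [hF] at h3
    norm_num at h3
    linear_combination h3
  apply SU_ext_mulVec
  intro x
  rw [pow_succ, pow_two]
  simp only [SU_mul_mulVec, SU_one_mulVec, ut_mulVec hF hu hs, ut_mulVec hF hv hs,
    hermForm_add_left, hermForm_smul_left, hu, hv]
  ext i
  simp only [Pi.add_apply, Pi.smul_apply, smul_eq_mul]
  generalize Cfsg.hermForm n F 2 u v = c at hk
  generalize Cfsg.hermForm n F 2 v u = d at hk
  generalize Cfsg.hermForm n F 2 x u = A
  generalize Cfsg.hermForm n F 2 x v = B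
  linear_combination (A * (c * d + 5) * u i + d * B * (c * d + 6) * u i + B * (c * d + 5) * v i
    + c * A * v i) * hk + (4 * A * u i + 6 * d * B * u i + 4 * B * v i + 2 * c * A * v i) * h2

lemma ut_zero_left (hF : Fintype.card F = 2 ^ 2) : ut hF (0 : Fin n → F) 1 = 1 := by
  apply SU_ext_mulVec
  intro x
  rw [ut_mulVec hF (hermForm_zero_left _) (one_skew hF), SU_one_mulVec, smul_zero, add_zero]

section loc2

variable {P : Type*} [Group P] (L : ULoc m F 2 P) (S : Subgroup P)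

lemma rho_comm_eps (hF : Fintype.card F = 2 ^ 2) (l : Cfsg.SU m F 2) :
    Commute (L.rho 0 1) (L.eps l) := (eps_rho_zero L l (val_zero_one hF)).symm

lemma bad_mul_bad (hF : Fintype.card F = 2 ^ 2) (a b : Cfsg.SU m F 2) :
    (L.rho 0 1 * L.eps a) * (L.rho 0 1 * L.eps b) = L.eps (a * b) := by
  rw [(rho_comm_eps L hF a).symm.mul_mul_mul_comm, rho_one_sq L hF, one_mul, map_mul]

lemma good_adj (hF : Fintype.card F = 2 ^ 2) (hA : L.rho 0 1 ∉ S) (u v : Fin m → F)
    (hu : Cfsg.hermForm m F 2 u u = 0) (hv : Cfsg.hermForm m F 2 v v = 0)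
    (huv : Cfsg.hermForm m F 2 u v ≠ 0) (gu : L.eps (ut hF u 1) ∈ S)
    (gv : L.eps (ut hF v 1) ∈ S ∨ L.rho 0 1 * L.eps (ut hF v 1) ∈ S) :
    L.eps (ut hF v 1) ∈ S := by
  rcases gv with gv | gv
  · exact gv
  exfalso
  have h1 := S.mul_mem gu gv
  have e1 : L.eps (ut hF u 1) * (L.rho 0 1 * L.eps (ut hF v 1))
      = L.rho 0 1 * L.eps (ut hF u 1 * ut hF v 1) := by
    rw [← mul_assoc, ← (rho_comm_eps L hF _).eq, mul_assoc, map_mul]
  rw [e1] at h1
  have h3 := S.pow_mem h1 3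
  rw [(rho_comm_eps L hF _).mul_pow, ← map_pow, ut_mul_cube hF u v hu hv huv, map_one, mul_one,
    pow_succ, pow_two, rho_one_sq L hF, one_mul] at h3
  exact hA h3

/-- [oZT2] -/
theorem kill_b [Finite P] (hF : Fintype.card F = 2 ^ 2) (hA : L.rho 0 1 ∉ S)
    (E : Submodule F (Fin m → F)) (hE : Nondeg 2 E) (hd : 4 ≤ Module.finrank F E)
    (h : ∀ w ∈ E, Cfsg.hermForm m F 2 w w = 0 →
      (L.eps (ut hF w 1) ∈ S ∨ L.rho 0 1 * L.eps (ut hF w 1) ∈ S)) :
    ∀ w ∈ E, Cfsg.hermForm m F 2 w w = 0 → L.eps (ut hF w 1) ∈ S := by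
  have h2 := two_eq_zero4 hF
  have adj : ∀ a ∈ E, ∀ b ∈ E, Cfsg.hermForm m F 2 a a = 0 → Cfsg.hermForm m F 2 b b = 0 →
      Cfsg.hermForm m F 2 a b ≠ 0 → L.eps (ut hF a 1) ∈ S → L.eps (ut hF b 1) ∈ S :=
    fun a _ b hb ia ib hab ga => good_adj L S hF hA a b ia ib hab ga (h b hb ib)
  have swap0 : ∀ a b : Fin m → F, Cfsg.hermForm m F 2 a b ≠ 0 → Cfsg.hermForm m F 2 b a ≠ 0 :=
    fun a b hab hba => hab (hermForm_eq_zero_comm hF hba)
  have conn : ∀ u ∈ E, ∀ v ∈ E, u ≠ 0 → v ≠ 0 → Cfsg.hermForm m F 2 u u = 0 →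
      Cfsg.hermForm m F 2 v v = 0 → L.eps (ut hF u 1) ∈ S → L.eps (ut hF v 1) ∈ S := by
    intro u hu v hv hu0 hv0 iu iv gu
    by_cases huv : Cfsg.hermForm m F 2 u v = 0
    swap
    · exact adj u hu v hv iu iv huv gu
    obtain ⟨u', hu', iu', huu'⟩ := exists_iso_partner hF E hE hu hu0 iu
    obtain ⟨v', hv', iv', hvv'⟩ := exists_iso_partner hF E hE hv hv0 iv
    have gu' := adj u hu u' hu' iu iu' huu' gu
    by_cases h1 : Cfsg.hermForm m F 2 v u' = 0
    swap
    · exact adj u' hu' v hv iu' iv (swap0 _ _ h1) gu'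
    by_cases h3 : Cfsg.hermForm m F 2 u v' = 0
    swap
    · exact adj v' hv' v hv iv' iv (swap0 _ _ hvv') (adj u hu v' hv' iu iv' h3 gu)
    by_cases h4 : Cfsg.hermForm m F 2 u' v' = 0
    swap
    · exact adj v' hv' v hv iv' iv (swap0 _ _ hvv') (adj u' hu' v' hv' iu' iv' h4 gu')
    have h4' : Cfsg.hermForm m F 2 v' u' = 0 := hermForm_eq_zero_comm hF h4
    have iy : Cfsg.hermForm m F 2 (u' + v') (u' + v') = 0 := by
      simp only [hermForm_add_left, hermForm_add_right hF, iu', iv', h4, h4', add_zero]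
    have hy : u' + v' ∈ E := E.add_mem hu' hv'
    have huy : Cfsg.hermForm m F 2 u (u' + v') ≠ 0 := by
      rw [hermForm_add_right hF, h3, add_zero]; exact huu'
    have hvy : Cfsg.hermForm m F 2 v (u' + v') ≠ 0 := by
      rw [hermForm_add_right hF, h1, zero_add]; exact hvv'
    exact adj _ hy v hv iy iv (swap0 _ _ hvy) (adj u hu _ hy iu iy huy gu)
  by_contra hcon
  push Not at hcon
  obtain ⟨w, hw, iw, bw⟩ := hcon
  have hw0 : w ≠ 0 := by
    rintro rfl
    rw [ut_zero_left hF, map_one] at bw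
    exact bw S.one_mem
  have allbad : ∀ v ∈ E, v ≠ 0 → Cfsg.hermForm m F 2 v v = 0 →
      L.rho 0 1 * L.eps (ut hF v 1) ∈ S := by
    intro v hv hv0 iv
    rcases h v hv iv with g | g
    · exact absurd (conn v hv w hw hv0 hw0 iv iw g) bw
    · exact g
  obtain ⟨e, hspan, hδ⟩ := exists_frame hF E hE
  have hmem : ∀ a, e a ∈ E := fun a => hspan ▸ Submodule.subset_span ⟨a, rfl⟩
  obtain ⟨om, hom0, hom1, hom⟩ := exists_omega hF
  set i0 : Fin (Module.finrank F E) := ⟨0, by omega⟩ with hi0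
  set i1 : Fin (Module.finrank F E) := ⟨1, by omega⟩ with hi1
  set i2 : Fin (Module.finrank F E) := ⟨2, by omega⟩ with hi2
  set i3 : Fin (Module.finrank F E) := ⟨3, by omega⟩ with hi3
  have n01 : i0 ≠ i1 := by simp [hi0, hi1]
  have n02 : i0 ≠ i2 := by simp [hi0, hi2]
  have n03 : i0 ≠ i3 := by simp [hi0, hi3]
  have n12 : i1 ≠ i2 := by simp [hi1, hi2]
  have n13 : i1 ≠ i3 := by simp [hi1, hi3]
  have n23 : i2 ≠ i3 := by simp [hi2, hi3]
  obtain ⟨z, hzdef⟩ : ∃ z, z = e i0 + e i1 := ⟨_, rfl⟩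
  obtain ⟨x, hxdef⟩ : ∃ x, x = e i2 + e i3 := ⟨_, rfl⟩
  have hzE : z ∈ E := by rw [hzdef]; exact E.add_mem (hmem _) (hmem _)
  have hxE : x ∈ E := by rw [hxdef]; exact E.add_mem (hmem _) (hmem _)
  have hz : Cfsg.hermForm m F 2 z z = 0 := by
    rw [hzdef]
    simp only [hermForm_add_left, hermForm_add_right hF, hδ, if_true, if_neg n01, if_neg n01.symm]
    linear_combination h2
  have hx : Cfsg.hermForm m F 2 x x = 0 := by
    rw [hxdef]
    simp only [hermForm_add_left, hermForm_add_right hF, hδ, if_true, if_neg n23, if_neg n23.symm]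
    linear_combination h2
  have hzx : Cfsg.hermForm m F 2 z x = 0 := by
    rw [hzdef, hxdef]
    simp only [hermForm_add_left, hermForm_add_right hF, hδ, if_neg n02, if_neg n03, if_neg n12,
      if_neg n13, add_zero]
  have hxz : Cfsg.hermForm m F 2 x z = 0 := hermForm_eq_zero_comm hF hzx
  have hz0 : Cfsg.hermForm m F 2 z (e i0) = 1 := by
    rw [hzdef]
    simp only [hermForm_add_left, hδ, if_true, if_neg n01.symm, add_zero]
  have hx0 : Cfsg.hermForm m F 2 x (e i0) = 0 := by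
    rw [hxdef]
    simp only [hermForm_add_left, hδ, if_neg n02.symm, if_neg n03.symm, add_zero]
  have hx2 : Cfsg.hermForm m F 2 x (e i2) = 1 := by
    rw [hxdef]
    simp only [hermForm_add_left, hδ, if_true, if_neg n23.symm, add_zero]
  have hxne : x ≠ 0 := by
    intro h0
    rw [h0, hermForm_zero_left] at hx2
    exact zero_ne_one hx2
  have line : ∀ mu : F, z + mu • x ∈ E ∧ z + mu • x ≠ 0 ∧
      Cfsg.hermForm m F 2 (z + mu • x) (z + mu • x) = 0 := by
    intro mu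
    refine ⟨E.add_mem hzE (E.smul_mem _ hxE), ?_, ?_⟩
    · intro h0
      have h5 : Cfsg.hermForm m F 2 (z + mu • x) (e i0) = 1 := by
        rw [hermForm_add_left, hermForm_smul_left, hz0, hx0, mul_zero, add_zero]
      rw [h0, hermForm_zero_left] at h5
      exact zero_ne_one h5
    · simp only [hermForm_add_left, hermForm_add_right hF, hermForm_smul_left,
        hermForm_smul_right, hz, hx, hzx, hxz, add_zero, mul_zero]
  have hzne : z ≠ 0 := by
    have := (line 0).2.1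
    rwa [zero_smul, add_zero] at this
  have b0 := allbad z hzE hzne hz
  have b1 := allbad x hxE hxne hx
  have b2 := allbad _ (line 1).1 (line 1).2.1 (line 1).2.2
  have b3 := allbad _ (line om).1 (line om).2.1 (line om).2.2
  have b4 := allbad _ (line (om ^ 2)).1 (line (om ^ 2)).2.1 (line (om ^ 2)).2.2
  rw [one_smul] at b2
  have c1 := S.mul_mem (S.mul_mem b1 b2) (S.mul_mem b3 b4)
  rw [bad_mul_bad L hF, bad_mul_bad L hF, ← map_mul, ← mul_assoc,
    ← ut_five hF z x om hom hz hzx hx] at c1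
  have c2 := S.mul_mem b0 (S.inv_mem c1)
  rw [mul_assoc, mul_inv_cancel, mul_one] at c2
  exact hA c2

end loc2

end Cfsg.Agent.Lib.Helper92.MinSU.O
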